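import Cfsg.Agent.OddHalf.D4.NC.Base
import Cfsg.Agent.KFacts.MulSpor.HS
import Cfsg.Agent.KFacts.MulEven.Fi22
import Cfsg.Agent.KFacts.MulEven.Baby
import Cfsg.Agent.KFacts.MulBaer
import Cfsg.Agent.KFacts.MulCo.CoZero
import Cfsg.Agent.KFacts.MulSpor.NoDbl
import Cfsg.Agent.KFacts.OddLift.SpSix
import Cfsg.Agent.OddHalf.D9.FFour.MultTwo
import Cfsg.Agent.KFacts.MulP.JTwo
import Cfsg.Agent.KFacts.MulP.MTwelve
import Cfsg.Agent.KFacts.OddLift.GTwoFour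
import Cfsg.Agent.KFacts.Mult.TwESixTwo
import Cfsg.Agent.KFacts.OddLift.OEight
import Cfsg.Agent.KFacts.Mult.SzEight
import Cfsg.Agent.KFacts.MulM22.Cyc
import Cfsg.Agent.OddHalf.D4.MultOf
import Cfsg.Agent.OddHalf.D4.NC.Suz

-- merged: Cfsg.Agent.OddHalf.D4.NC.HS
section

/-!
# Noncyclic centres: `HS`
-/

set_option autoImplicit false

namespace Cfsg.Agent.OddHalf.D4.NC.HS

open Subgroup Cfsg Cfsg.Agent.OddHalf.D9.Cut Cfsg.Agent.OddHalf.D4.MultOf Cfsg.Agent.OddHalf.D4.Cut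

universe u

theorem hs : NonCyc.{u} (fun X _ => Spor.IsoHS X) :=
  NonCyc.of_oneCover fun _ _ hX => Cfsg.Agent.KFacts.MulSpor.HS.oneCover_of_equiv hX.some

end Cfsg.Agent.OddHalf.D4.NC.HS

end

-- merged: Cfsg.Agent.OddHalf.D4.NC.Fi22
section

/-!
# Noncyclic centres: `Fi22`
-/

set_option autoImplicit false

namespace Cfsg.Agent.OddHalf.D4.NC.Fi22

open Subgroup Cfsg Cfsg.Agent.OddHalf.D9.Cut Cfsg.Agent.OddHalf.D4.MultOf Cfsg.Agent.OddHalf.D4.Cut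

universe u

theorem fi22 : NonCyc.{u} (fun X _ => Spor.IsoFi22 X) :=
  NonCyc.of_oneCover fun _ _ hX => Cfsg.Agent.KFacts.MulBaer.OneCover.congr Cfsg.Agent.KFacts.MulEven.Fi22.oneCover hX.some.symm

end Cfsg.Agent.OddHalf.D4.NC.Fi22

end

-- merged: Cfsg.Agent.OddHalf.D4.NC.Baby
section

/-!
# Noncyclic centres: the Baby Monster
-/

set_option autoImplicit false

namespace Cfsg.Agent.OddHalf.D4.NC.Baby

open Subgroup Cfsg Cfsg.Agent.OddHalf.D9.Cut Cfsg.Agent.OddHalf.D4.MultOf Cfsg.Agent.OddHalf.D4.Cut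

universe u

theorem b : NonCyc.{u} (fun X _ => Spor.IsoB X) :=
  NonCyc.of_oneCover fun _ _ hX => Cfsg.Agent.KFacts.MulBaer.OneCover.congr Cfsg.Agent.KFacts.MulEven.Baby.oneCover hX.some.symm

end Cfsg.Agent.OddHalf.D4.NC.Baby

end

-- merged: Cfsg.Agent.OddHalf.D4.NC.Co1
section

/-!
# Noncyclic centres: `Co1`
-/

set_option autoImplicit false

namespace Cfsg.Agent.OddHalf.D4.NC.Co1

open Subgroup Cfsg Cfsg.Agent.OddHalf.D9.Cut Cfsg.Agent.OddHalf.D4.MultOf Cfsg.Agent.OddHalf.D4.Cut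

universe u

theorem co1 : NonCyc.{u} (fun X _ => Spor.IsoCo1 X) :=
  NonCyc.of_oneCover fun _ _ hX => Cfsg.Agent.KFacts.MulBaer.OneCover.congr
    (Cfsg.Agent.KFacts.MulCo.CoZero.oneCover Cfsg.Agent.KFacts.MulSpor.NoDbl.M24) hX.some.symm

end Cfsg.Agent.OddHalf.D4.NC.Co1

end

-- merged: Cfsg.Agent.OddHalf.D4.NC.Sp62
section

/-!
# Noncyclic centres: `Sp₆(2)`
-/

set_option autoImplicit false

namespace Cfsg.Agent.OddHalf.D4.NC.Sp62

open Subgroup Cfsg Cfsg.Agent.OddHalf.D9.Cut Cfsg.Agent.OddHalf.D4.MultOf Cfsg.Agent.OddHalf.D4.Cut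

universe u

theorem sp62 : NonCyc.{u} (fun X _ => XSp62 X) :=
  Base.of_le_two fun K _ _ hK h2 hX => by
    obtain ⟨F, _, _, hF, ⟨e⟩⟩ := hX
    exact Cfsg.Agent.KFacts.OddLift.SpSix.card_le hK (center K) le_rfl h2 hF e

end Cfsg.Agent.OddHalf.D4.NC.Sp62

end

-- merged: Cfsg.Agent.OddHalf.D4.NC.F42
section

/-!
# Noncyclic centres: `F₄(2)`
-/

set_option autoImplicit false

namespace Cfsg.Agent.OddHalf.D4.NC.F42

open Subgroup Cfsg Cfsg.Agent.OddHalf.D9.Cut Cfsg.Agent.OddHalf.D4.MultOf Cfsg.Agent.OddHalf.D4.Cut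

universe u

theorem f42 : NonCyc.{u} (fun X _ => XF42 X) :=
  Base.of_le_two fun _ _ _ hK _ hX =>
    Nat.le_of_dvd (by norm_num) (Cfsg.Agent.OddHalf.D9.FFour.MultTwo.card_center hK hX)

end Cfsg.Agent.OddHalf.D4.NC.F42

end

-- merged: Cfsg.Agent.OddHalf.D4.NC.J2
section

/-!
# Noncyclic centres: `J2`
-/

set_option autoImplicit false

namespace Cfsg.Agent.OddHalf.D4.NC.J2

open Subgroup Cfsg Cfsg.Agent.OddHalf.D9.Cut Cfsg.Agent.OddHalf.D4.MultOf Cfsg.Agent.OddHalf.D4.Cut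

universe u

theorem j2 : NonCyc.{u} (fun X _ => Spor.IsoJ2 X) :=
  Base.of_le_two fun K _ _ hK h2 hX => Cfsg.Agent.KFacts.MulP.JTwo.card_le hK (center K) le_rfl h2 hX

end Cfsg.Agent.OddHalf.D4.NC.J2

end

-- merged: Cfsg.Agent.OddHalf.D4.NC.M12
section

/-!
# Noncyclic centres: `M12`
-/

set_option autoImplicit false

namespace Cfsg.Agent.OddHalf.D4.NC.M12

open Subgroup Cfsg Cfsg.Agent.OddHalf.D9.Cut Cfsg.Agent.OddHalf.D4.MultOf Cfsg.Agent.OddHalf.D4.Cut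

universe u

theorem m12 : NonCyc.{u} (fun X _ => Spor.IsoM12 X) :=
  Base.of_le_two fun K _ _ hK h2 hX => Cfsg.Agent.KFacts.MulP.MTwelve.card_le hK (center K) le_rfl h2 hX

end Cfsg.Agent.OddHalf.D4.NC.M12

end

-- merged: Cfsg.Agent.OddHalf.D4.NC.G24
section

/-!
# Noncyclic centres: `G₂(4)`
-/

set_option autoImplicit false

namespace Cfsg.Agent.OddHalf.D4.NC.G24

open Subgroup Cfsg Cfsg.Agent.OddHalf.D9.Cut Cfsg.Agent.OddHalf.D4.MultOf Cfsg.Agent.OddHalf.D4.Cut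

universe u

theorem g24 : NonCyc.{u} (fun X _ => XG24 X) :=
  Base.of_ker fun _ _ hX _ _ _ hK _ hf hZ => by
    obtain ⟨F, _, _, hF, ⟨e⟩⟩ := hX
    exact Cfsg.Agent.KFacts.OddLift.GTwoFour.not_four_dvd (by rw [Nat.card_eq_fintype_card, hF]) e hK hf hZ

end Cfsg.Agent.OddHalf.D4.NC.G24

end

-- merged: Cfsg.Agent.OddHalf.D4.NC.E62
section

/-!
# Noncyclic centres: `²E₆(2)`
-/

set_option autoImplicit false

namespace Cfsg.Agent.OddHalf.D4.NC.E62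

open Subgroup Cfsg Cfsg.Agent.OddHalf.D9.Cut Cfsg.Agent.OddHalf.D4.MultOf Cfsg.Agent.OddHalf.D4.Cut

universe u

theorem e62 : BdAll.{u} (fun X _ => X2E62 X) := fun _ _ hf hq h2 hX =>
  haveI := hf
  (Cfsg.Agent.KFacts.Mult.TwESixTwo.center_elem hq h2 hX).2

end Cfsg.Agent.OddHalf.D4.NC.E62

end

-- merged: Cfsg.Agent.OddHalf.D4.NC.O82
section

/-!
# Noncyclic centres: `Ω₈⁺(2)`
-/

set_option autoImplicit false

namespace Cfsg.Agent.OddHalf.D4.NC.O82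

open Subgroup Cfsg Cfsg.Agent.OddHalf.D9.Cut Cfsg.Agent.OddHalf.D4.MultOf Cfsg.Agent.OddHalf.D4.Cut

universe u

theorem o82 : BdAll.{u} (fun X _ => XO82 X) :=
  Base.bdAll_of_le fun K _ _ hK h2 hX => by
    obtain ⟨F, _, _, hF, ⟨e⟩⟩ := hX
    exact (Cfsg.Agent.KFacts.OddLift.OEight.card_le hK (center K) le_rfl h2 hF e).2

end Cfsg.Agent.OddHalf.D4.NC.O82

end

-- merged: Cfsg.Agent.OddHalf.D4.NC.Sz8
section

/-!
# Noncyclic centres: `Sz(8)`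
-/

set_option autoImplicit false

namespace Cfsg.Agent.OddHalf.D4.NC.Sz8

open Subgroup Cfsg Cfsg.Agent.OddHalf.D9.Cut Cfsg.Agent.OddHalf.D4.MultOf Cfsg.Agent.OddHalf.D4.Cut

universe u

theorem sz8 : ∀ (K : Type u) [Group K], Finite K → IsQuasisimple K → IsPGroup 2 ↥(center K) → XSz8 (K ⧸ center K) →
    (∀ z ∈ center K, z * z = 1) ∧ Nat.card ↥(center K) ∣ 4 := fun _ _ hf hq h2 hX => by
  haveI := hf
  obtain ⟨F, i1, i2, hF, ⟨e⟩⟩ := hX
  exact Cfsg.Agent.KFacts.Mult.SzEight.center_elem hq.1.commutator_eq_top h2 ⟨F, i1, i2, hF, ⟨e⟩⟩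

end Cfsg.Agent.OddHalf.D4.NC.Sz8

end

-- merged: Cfsg.Agent.KFacts.MulM22.NonCyc
section

/-!
# D4: the row `NCRows.m22` (helper281)

`nonCyc_m22`: no quasisimple group over `M22` has a noncyclic centre that is a 2-group.
`card_center_dvd`: the centre, if a 2-group, has order dividing 4.
-/

set_option autoImplicit false

namespace Cfsg.Agent.KFacts.MulM22.NonCyc

open Subgroup Cfsg Cfsg.Agent.OddHalf.D4.Cut Cfsg.Agent.OddHalf.D4.MultOf

universe u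

/-- **The row `NCRows.m22`.** -/
theorem nonCyc_m22 : Cfsg.Agent.OddHalf.D4.MultOf.NonCyc.{u} (fun X _ => Spor.IsoM22 X) := by
  intro K _ hK hX
  have := hK.1
  exact hK.2.2.2 (Cyc.cyclic_center hK.2.1.1.commutator_eq_top hK.2.2.1 hX)

/-- the centre, if a 2-group, has order dividing 4 -/
theorem card_center_dvd {K : Type u} [Group K] (hf : Finite K) (hq : IsQuasisimple K)
    (h2 : IsPGroup 2 ↥(center K)) (hX : Spor.IsoM22 (K ⧸ center K)) : Nat.card ↥(center K) ∣ 4 :=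
  Row.bd_m22 K ⟨hf, hq, h2, Cyc.cyclic_center hq.1.commutator_eq_top h2 hX⟩ hX

end Cfsg.Agent.KFacts.MulM22.NonCyc

end

-- merged: Cfsg.Agent.OddHalf.D4.NC.Inst
section

/-!
# `NCRows` and `VRows` from the multiplier files

Open: `Ru`, `U₆(2)`, `Sz(q)` for `q > 8`.
-/

set_option autoImplicit false

namespace Cfsg.Agent.OddHalf.D4.NC.Inst

open Subgroup Cfsg Cfsg.Agent.OddHalf.D9.Cut Cfsg.Agent.OddHalf.D4.MultOf Cfsg.Agent.OddHalf.D4.Cut

universe u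

theorem ncRows (hru : NonCyc.{u} (fun X _ => Spor.IsoRu X)) : NCRows.{u} where
  sp62 := Sp62.sp62
  g24 := G24.g24
  f42 := F42.f42
  m12 := M12.m12
  j2 := J2.j2
  hs := HS.hs
  suz := Suz.suz
  ru := hru
  fi22 := Fi22.fi22
  co1 := Co1.co1
  b := Baby.b
  m22 := Cfsg.Agent.KFacts.MulM22.NonCyc.nonCyc_m22

theorem vRows (hu62 : BdAll.{u} (fun X _ => XU62 X))
    (hbig : ∀ (F : Type) [Field F] [Fintype F] (m : ℕ), 2 ≤ m → Fintype.card F = 2 ^ (2 * m + 1) →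
      Cfsg.Agent.KFacts.MulDef.NoDouble ↥(Lie.Sz F (2 ^ (m + 1)))) : VRows.{u} where
  u62 := hu62
  o82 := O82.o82
  e62 := E62.e62
  sz8 := Sz8.sz8
  szBig := hbig

end Cfsg.Agent.OddHalf.D4.NC.Inst

end
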